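import Cfsg.Agent.Blocks.OrbitSum
import Cfsg.Agent.Blocks.LocalRing
import Cfsg.Agent.S0940
import Cfsg.Agent.S0913
import Cfsg.Agent.S0907
import Cfsg.Agent.Blocks.Blau
import Cfsg.Agent.Blocks.PrincipalSection

/-!
# The principal block part of a virtual character at the identity (S4884, T3')

`Q` a Sylow `q`-subgroup of `G`, `H = O_{q'}(C_G(Q))` (the `q`-regular elements of `C_G(Q)`).

* `block_sum`: `∑_{χ ∈ B₀(q)} ⟨Θ, χ⟩ χ(1) ≡ ⟨Θ_H, 1_H⟩` modulo `M`.
* `exists_of_ne`: if `⟨Θ, 1⟩ = 1` and `⟨Θ_H, 1_H⟩` is not congruent to `1` there is `χ ≠ 1` in `B₀(q)` of `q'`-degree with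
  `⟨Θ, χ⟩ ≠ 0`.
-/

set_option autoImplicit false
set_option linter.unusedSectionVars false

open Cfsg
open scoped ComplexConjugate

namespace Cfsg.Agent.H850.SQ

open Cfsg.Agent.Characters Cfsg.Agent.Blocks.Local

variable {G : Type*} [Group G] [Fintype G] {q : ℕ} [Fact q.Prime] {M : Ideal AlgInt}

/-- Sums of invariant local integers: only the centralizer counts. -/
theorem sum_sub_centralizer (hM : IsPModular q M) (Q : Subgroup G) (hQ : IsPGroup q Q) (f : G → ℂ)
    (hf : ∀ u ∈ Q, ∀ x : G, f (u * x * u⁻¹) = f x) (hR : ∀ x, MemLocalRing M (f x))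
    [DecidablePred (· ∈ Subgroup.centralizer (Q : Set G))] :
    MemLocalIdeal M (∑ x, f x - ∑ x ∈ Finset.univ.filter (· ∈ Subgroup.centralizer (Q : Set G)), f x) := by
  have := isPrime_of_isPModular hM
  obtain ⟨a, ha⟩ := Cfsg.Agent.Blocks.OrbitSum.sum_eq_sum_centralizer_add_smul (p := q) Q hQ
    (fun x => (⟨f x, hR x⟩ : Cfsg.Agent.Blocks.LocalRing.locRing hM)) (fun u hu x => Subtype.ext (hf u hu x))
  have h1 := congrArg (fun z : Cfsg.Agent.Blocks.LocalRing.locRing hM => (z : ℂ)) ha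
  push_cast at h1
  rw [h1, add_sub_cancel_left]
  have h2 : MemLocalRing M ((a : Cfsg.Agent.Blocks.LocalRing.locRing hM) : ℂ) := a.2
  rw [nsmul_eq_mul]
  exact memLocalIdeal_mul_right (memLocalIdeal_p hM) h2

/-- Counting version. -/
theorem card_sub_centralizer (Q : Subgroup G) (hQ : IsPGroup q Q) (P : G → Prop) [DecidablePred P]
    (hP : ∀ u ∈ Q, ∀ x : G, P (u * x * u⁻¹) ↔ P x)
    [DecidablePred (· ∈ Subgroup.centralizer (Q : Set G))] :
    ∃ a : ℤ, ((Finset.univ.filter P).card : ℤ) =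
      ((Finset.univ.filter fun x => x ∈ Subgroup.centralizer (Q : Set G) ∧ P x).card : ℤ) + q * a := by
  obtain ⟨a, ha⟩ := Cfsg.Agent.Blocks.OrbitSum.sum_eq_sum_centralizer_add_smul (p := q) Q hQ
    (fun x => if P x then (1 : ℤ) else 0) (fun u hu x => by simp only [hP u hu x])
  refine ⟨a, ?_⟩
  rw [Finset.sum_boole, Finset.sum_boole, Finset.filter_filter, nsmul_eq_mul] at ha
  exact_mod_cast ha

variable (Q : Sylow q G) {H : Subgroup G}
  (hH : ∀ h : G, h ∈ H ↔ h ∈ Subgroup.centralizer ((Q : Subgroup G) : Set G) ∧ ¬ q ∣ orderOf h)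

include hH

theorem not_dvd_card : ¬ q ∣ Nat.card H := by
  intro h
  obtain ⟨x, hx⟩ := exists_prime_orderOf_dvd_card' q h
  have h1 := ((hH x).1 x.2).2
  rw [Subgroup.orderOf_coe, hx] at h1
  exact h1 dvd_rfl

/-- The coefficients of the principal block idempotent on `H`. -/
theorem coeff_sub (hM : IsPModular q M) {h : G} (hh : h ∈ H) :
    MemLocalIdeal M (blockCoeff (principalBlock M G) h - (Nat.card H : ℂ)⁻¹) := by
  classical
  have hMp := isPrime_of_isPModular hM
  have hhC := (hH h).1 hh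
  have hcard : (Nat.card H : ℂ) ≠ 0 := by exact_mod_cast Nat.card_pos.ne'
  have h1 := Cfsg.Agent.S0940.result q M hM h hhC.2
  set N := Nat.card {xy : G × G // (∃ k : ℕ, orderOf xy.1 = q ^ k) ∧ ¬ q ∣ orderOf xy.2 ∧ xy.1 * xy.2 = h} with hN
  set R := Nat.card {y : G // ¬ q ∣ orderOf y} with hR
  -- the number of pairs
  have hN1 : N = (Finset.univ.filter fun y : G => (∃ k : ℕ, orderOf (h * y⁻¹) = q ^ k) ∧ ¬ q ∣ orderOf y).card := by
    rw [hN, ← Fintype.card_subtype, ← Nat.card_eq_fintype_card]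
    refine Nat.card_congr ⟨fun z => ⟨z.1.2, ?_⟩, fun y => ⟨(h * (y : G)⁻¹, y), y.2.1, y.2.2, by simp⟩, fun z => ?_,
      fun y => rfl⟩
    · have h2 : h * (z.1.2)⁻¹ = z.1.1 := mul_inv_eq_iff_eq_mul.2 z.2.2.2.symm
      rw [h2]
      exact ⟨z.2.1, z.2.2.1⟩
    · have h2 : h * (z.1.2)⁻¹ = z.1.1 := mul_inv_eq_iff_eq_mul.2 z.2.2.2.symm
      exact Subtype.ext (Prod.ext h2 rfl)
  have hconj : ∀ u x : G, orderOf (u * x * u⁻¹) = orderOf x := fun u x =>
    Cfsg.Agent.Blocks.Blau.orderOf_conj_eq x u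
  obtain ⟨a, ha⟩ := card_sub_centralizer (Q : Subgroup G) Q.2
    (fun y : G => (∃ k : ℕ, orderOf (h * y⁻¹) = q ^ k) ∧ ¬ q ∣ orderOf y) (fun u hu x => by
      have h2 : h * (u * x * u⁻¹)⁻¹ = u * (h * x⁻¹) * u⁻¹ := by
        have h3 : u * h = h * u := (Subgroup.mem_centralizer_iff.1 hhC.1 u hu)
        calc h * (u * x * u⁻¹)⁻¹ = (h * u) * x⁻¹ * u⁻¹ := by group
          _ = (u * h) * x⁻¹ * u⁻¹ := by rw [h3]
          _ = _ := by group
      simp only [h2, hconj])
  have hset : (Finset.univ.filter fun x : G => x ∈ Subgroup.centralizer ((Q : Subgroup G) : Set G) ∧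
      (∃ k : ℕ, orderOf (h * x⁻¹) = q ^ k) ∧ ¬ q ∣ orderOf x) = {h} := by
    ext y
    simp only [Finset.mem_filter, Finset.mem_univ, true_and, Finset.mem_singleton]
    constructor
    · rintro ⟨h2, ⟨k, h3⟩, h4⟩
      have hy : y ∈ H := (hH y).2 ⟨h2, h4⟩
      have h5 : h * y⁻¹ ∈ H := H.mul_mem hh (H.inv_mem hy)
      have h6 := ((hH _).1 h5).2
      rw [h3] at h6
      have h7 : k = 0 := by
        by_contra hk
        exact h6 (dvd_pow_self _ hk)
      rw [h7, pow_zero, orderOf_eq_one_iff] at h3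
      exact (mul_inv_eq_one.1 h3).symm
    · rintro rfl
      exact ⟨hhC.1, ⟨0, by rw [mul_inv_cancel, orderOf_one, pow_zero]⟩, hhC.2⟩
  rw [← hN1, hset, Finset.card_singleton] at ha
  -- the number of `q`-regular elements
  have hR1 : R = (Finset.univ.filter fun y : G => ¬ q ∣ orderOf y).card := by
    rw [hR, ← Fintype.card_subtype, ← Nat.card_eq_fintype_card]
  obtain ⟨b, hb⟩ := card_sub_centralizer (Q : Subgroup G) Q.2 (fun y : G => ¬ q ∣ orderOf y) (fun u hu x => by
    simp only [hconj])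
  have hHc : (Finset.univ.filter fun x : G => x ∈ Subgroup.centralizer ((Q : Subgroup G) : Set G) ∧
      ¬ q ∣ orderOf x).card = Nat.card H := by
    rw [← Fintype.card_subtype, ← Nat.card_eq_fintype_card]
    exact Nat.card_congr (Equiv.subtypeEquivRight fun x => (hH x).symm)
  rw [← hR1, hHc] at hb
  -- conclusion
  have hR0 : ¬ q ∣ R := by
    intro h2
    apply not_dvd_card Q hH
    have h3 : (q : ℤ) ∣ (Nat.card H : ℤ) := by
      have h4 : (q : ℤ) ∣ (R : ℤ) := by exact_mod_cast h2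
      rw [hb] at h4
      exact (dvd_add_left (Dvd.intro _ rfl)).1 h4
    exact_mod_cast h3
  have hRR := memLocalRing_inv_natCast hM hR0
  have hRH := memLocalRing_inv_natCast hM (not_dvd_card Q hH)
  have hRne : (R : ℂ) ≠ 0 := by
    intro h2
    apply hR0
    have : R = 0 := by exact_mod_cast h2
    rw [this]
    exact dvd_zero _
  have h2 : MemLocalIdeal M ((N : ℂ) / (R : ℂ) - (Nat.card H : ℂ)⁻¹) := by
    have e1 : (N : ℂ) = 1 + q * a := by exact_mod_cast ha
    have e2 : (R : ℂ) = Nat.card H + q * b := by exact_mod_cast hb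
    have e3 : (N : ℂ) / (R : ℂ) - (Nat.card H : ℂ)⁻¹ =
        (q : ℂ) * ((((a * Nat.card H - b : ℤ) : ℂ)) * ((R : ℂ)⁻¹ * (Nat.card H : ℂ)⁻¹)) := by
      field_simp
      rw [e1]
      push_cast
      linear_combination -e2
    rw [e3]
    exact memLocalIdeal_mul_right (memLocalIdeal_p hM) (memLocalRing_mul (memLocalRing_intCast _)
      (memLocalRing_mul hRR hRH))
  exact memLocalIdeal_sub_trans h1 h2

/-- **T3'.** -/
theorem block_sum (hM : IsPModular q M) [Fintype (IrrCharacter G)] [Fintype H]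
    [DecidablePred (· ∈ principalBlock M G)] {Θ : G → ℂ} (hΘ : IsGeneralizedCharacter G Θ) :
    MemLocalIdeal M ((∑ χ : IrrCharacter G with χ ∈ principalBlock M G,
      classInner Θ (χ : G → ℂ) * (χ : G → ℂ) 1) - classInner (fun h : H => Θ h) 1) := by
  classical
  have hMp := isPrime_of_isPModular hM
  have hΘc : IsClassFunction G Θ := by
    obtain ⟨χ, ψ, hχ, hψ, rfl⟩ := hΘ
    intro g h
    rw [Pi.sub_apply, Pi.sub_apply, Core.isCharacter_isClassFunction hχ, Core.isCharacter_isClassFunction hψ]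
  have hΘi : ∀ g, MemLocalRing M (Θ g) := by
    obtain ⟨χ, ψ, hχ, hψ, rfl⟩ := hΘ
    intro g
    exact memLocalRing_of_isIntegral ((Cfsg.Agent.Blocks.Blau.isIntegral_of_isCharacter hχ g).sub
      (Cfsg.Agent.Blocks.Blau.isIntegral_of_isCharacter hψ g))
  have h1 : ∑ χ : IrrCharacter G with χ ∈ principalBlock M G, classInner Θ (χ : G → ℂ) * (χ : G → ℂ) 1 =
      ∑ g : G, blockCoeff (principalBlock M G) g * Θ g := by
    have h2 : ∀ g, blockCoeff (principalBlock M G) g = (Nat.card G : ℂ)⁻¹ *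
        ∑ χ : IrrCharacter G with χ ∈ principalBlock M G, (χ : G → ℂ) 1 * conj ((χ : G → ℂ) g) := by
      intro g
      unfold blockCoeff
      rw [finsum_mem_eq_finite_toFinset_sum _ (Set.toFinite _)]
      congr 1
      refine Finset.sum_congr ?_ fun _ _ => rfl
      ext χ
      simp
    simp only [h2, Finset.mul_sum, Finset.sum_mul]
    rw [Finset.sum_comm]
    refine Finset.sum_congr rfl fun χ _ => ?_
    rw [Core.classInner_def, mul_assoc, Finset.sum_mul, Finset.mul_sum]
    exact Finset.sum_congr rfl fun g _ => by ring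
  have hcoc : IsClassFunction G (blockCoeff (principalBlock M G)) := by
    intro g h
    unfold blockCoeff
    congr 1
    refine finsum_mem_congr rfl fun χ _ => ?_
    rw [Core.isIrr_isClassFunction χ.2 g h]
  have h3 := sum_sub_centralizer hM (Q : Subgroup G) Q.2 (fun g => blockCoeff (principalBlock M G) g * Θ g)
    (fun u _ x => by
      show blockCoeff _ _ * Θ _ = _
      rw [hcoc, hΘc]) (fun g => memLocalRing_mul (Cfsg.Agent.S0913.result q M hM _
        Cfsg.Agent.Blocks.PrincipalSection.isPBlock_principalBlock g) (hΘi g))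
  have h4 : ∑ x ∈ Finset.univ.filter (· ∈ Subgroup.centralizer ((Q : Subgroup G) : Set G)),
      blockCoeff (principalBlock M G) x * Θ x = ∑ h : H, blockCoeff (principalBlock M G) h * Θ h := by
    rw [← Finset.sum_subtype (Finset.univ.filter fun x : G => x ∈ H) (p := fun x => x ∈ H) (fun x => by simp)
      (fun x => blockCoeff (principalBlock M G) x * Θ x)]
    symm
    refine Finset.sum_subset (fun x hx => ?_) fun x hx hxH => ?_
    · rw [Finset.mem_filter] at hx ⊢
      exact ⟨Finset.mem_univ x, ((hH x).1 hx.2).1⟩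
    · rw [Finset.mem_filter] at hx hxH
      have hd : q ∣ orderOf x := by
        by_contra hd
        exact hxH ⟨Finset.mem_univ x, (hH x).2 ⟨hx.2, hd⟩⟩
      have h0 : blockCoeff (principalBlock M G) x = 0 := by
        unfold blockCoeff
        rw [Cfsg.Agent.S0907.result q M hM (principalBlock M G)
          Cfsg.Agent.Blocks.PrincipalSection.isPBlock_principalBlock 1 x (by
            rw [orderOf_one]; exact (Fact.out : q.Prime).one_lt.ne' ∘ Nat.dvd_one.1) hd, mul_zero]
      rw [h0, zero_mul]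
  rw [h1]
  rw [h4] at h3
  refine memLocalIdeal_sub_trans h3 ?_
  rw [Core.classInner_def, Finset.mul_sum]
  refine memLocalIdeal_sum_sub_sum fun h _ => ?_
  have h5 := memLocalIdeal_mul_right (coeff_sub Q hH hM h.2) (hΘi h)
  convert h5 using 1
  rw [Pi.one_apply, map_one]
  ring

/-- **Existence.** -/
theorem exists_of_ne (hM : IsPModular q M) [Fintype H] {Θ : G → ℂ} (hΘ : IsGeneralizedCharacter G Θ)
    (h1 : classInner Θ 1 = 1) (hne : ¬ MemLocalIdeal M (classInner (fun h : H => Θ h) 1 - 1)) :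
    ∃ χ : IrrCharacter G, χ ∈ principalBlock M G ∧ (χ : G → ℂ) ≠ 1 ∧ classInner Θ (χ : G → ℂ) ≠ 0 ∧
      ¬ q ∣ charDegree (χ : G → ℂ) := by
  classical
  have hMp := isPrime_of_isPModular hM
  have := Core.finite_irr (G := G)
  have := Fintype.ofFinite (IrrCharacter G)
  by_contra hcon
  push Not at hcon
  apply hne
  have h2 := block_sum Q hH hM hΘ
  let χ₁ : IrrCharacter G := ⟨1, Core.isIrr_one⟩
  have hχ₁ : χ₁ ∈ principalBlock M G := Cfsg.Agent.Blocks.PrincipalSection.one_mem_principalBlock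
  have h3 : MemLocalIdeal M ((∑ χ : IrrCharacter G with χ ∈ principalBlock M G,
      classInner Θ (χ : G → ℂ) * (χ : G → ℂ) 1) - 1) := by
    rw [← Finset.add_sum_erase _ _ (Finset.mem_filter.2 ⟨Finset.mem_univ χ₁, hχ₁⟩)]
    have e1 : classInner Θ (χ₁ : G → ℂ) * (χ₁ : G → ℂ) 1 = 1 := by
      show classInner Θ 1 * (1 : G → ℂ) 1 = 1
      rw [h1, Pi.one_apply, one_mul]
    rw [e1, add_sub_cancel_left]
    refine memLocalIdeal_sum fun χ hχ => ?_
    rw [Finset.mem_erase, Finset.mem_filter] at hχ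
    have hne1 : (χ : G → ℂ) ≠ 1 := fun h => hχ.1 (Subtype.ext h)
    by_cases h0 : classInner Θ (χ : G → ℂ) = 0
    · rw [h0, zero_mul]
      exact memLocalIdeal_zero
    · have h4 := hcon χ hχ.2.2 hne1 h0
      have h5 : MemLocalIdeal M ((χ : G → ℂ) 1) := by
        obtain ⟨n, -, hn⟩ := Core.isIrr_apply_one χ.2
        rw [Cfsg.Agent.Blocks.Blau.charDegree_eq hn] at h4
        rw [hn]
        have h6 := (memLocalIdeal_intCast_iff (p := q) hM (n : ℤ)).2 (by exact_mod_cast h4)
        exact_mod_cast h6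
      refine memLocalIdeal_mul_left ?_ h5
      obtain ⟨m, hm⟩ := Core.isGeneralizedCharacter_iff.1 hΘ
      have h6 : classInner Θ (χ : G → ℂ) = m χ := by
        rw [hm]
        exact Core.classInner_sum_zsmul_irr m χ
      rw [h6]
      exact memLocalRing_intCast _
  have h4 := memLocalIdeal_sub h3 h2
  convert h4 using 1
  ring

end Cfsg.Agent.H850.SQ
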